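import Cfsg.Agent.Lib.Helper47.FourCount

/-!
Conjugacy classes of four-subgroups, abstract counting arguments.
-/

set_option autoImplicit false

namespace Cfsg.Agent.Lib.Helper47

open Cfsg.Agent.Lib.Helper11

variable {G : Type*} [Group G]

/-- hands-on orbit-stabiliser -/
theorem card_range_mul_card {X : Type*} [Finite G] (f : G → X) (K : Subgroup G)
    (h : ∀ a b : G, f a = f b ↔ a⁻¹ * b ∈ K) :
    (Set.range f).ncard * Nat.card K = Nat.card G := by
  let φ : G ⧸ K → X := Quotient.lift f (by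
    intro a b hab
    exact (h a b).mpr (QuotientGroup.leftRel_apply.mp hab))
  have hφ : Function.Injective φ := by
    intro a b
    induction a using QuotientGroup.induction_on with
    | H a =>
      induction b using QuotientGroup.induction_on with
      | H b =>
        intro hab
        exact QuotientGroup.eq.mpr ((h a b).mp hab)
  have hr : Set.range f = Set.range φ := by
    ext x
    constructor
    · rintro ⟨g, rfl⟩
      exact ⟨(g : G ⧸ K), rfl⟩
    · rintro ⟨q, rfl⟩
      induction q using QuotientGroup.induction_on with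
      | H g => exact ⟨g, rfl⟩
  rw [hr, ← Nat.card_coe_set_eq, Nat.card_range_of_injective hφ]
  exact (Subgroup.card_eq_card_quotient_mul_card_subgroup K).symm

/-- conjugate of a pair -/
def conjPair (p : G × G) (g : G) : G × G := (g * p.1 * g⁻¹, g * p.2 * g⁻¹)

theorem isInvPair_conjPair {p : G × G} (hp : IsInvPair p) (g : G) : IsInvPair (conjPair p g) := by
  obtain ⟨h1, h2, h3, h4, h5, h6⟩ := hp
  refine ⟨?_, ?_, ?_, ?_, ?_, ?_⟩
  · intro h
    apply h1
    simpa [conjPair] using h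
  · intro h
    apply h2
    simpa [conjPair] using h
  · intro h
    apply h3
    simpa [conjPair] using h
  · show g * p.1 * g⁻¹ * (g * p.1 * g⁻¹) = 1
    calc g * p.1 * g⁻¹ * (g * p.1 * g⁻¹) = g * (p.1 * p.1) * g⁻¹ := by group
      _ = 1 := by rw [h4]; group
  · show g * p.2 * g⁻¹ * (g * p.2 * g⁻¹) = 1
    calc g * p.2 * g⁻¹ * (g * p.2 * g⁻¹) = g * (p.2 * p.2) * g⁻¹ := by group
      _ = 1 := by rw [h5]; group
  · show g * p.1 * g⁻¹ * (g * p.2 * g⁻¹) = g * p.2 * g⁻¹ * (g * p.1 * g⁻¹)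
    calc g * p.1 * g⁻¹ * (g * p.2 * g⁻¹) = g * (p.1 * p.2) * g⁻¹ := by group
      _ = g * (p.2 * p.1) * g⁻¹ := by rw [h6]
      _ = _ := by group

theorem conjPair_conjPair (p : G × G) (g h : G) : conjPair (conjPair p g) h = conjPair p (h * g) := by
  simp only [conjPair, Prod.mk.injEq]
  constructor <;> group

/-- self-centralising four-groups: orbit length of a pair -/
theorem four_mul_ncard_orbit [Finite G] (p : G × G) (hp : IsInvPair p)
    (hC : ∀ g : G, g * p.1 = p.1 * g → g * p.2 = p.2 * g →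
      g = 1 ∨ g = p.1 ∨ g = p.2 ∨ g = p.1 * p.2) :
    (Set.range (conjPair p)).ncard * 4 = Nat.card G := by
  have hK := (pairFour ⟨p, hp⟩).2
  rw [← hK.card_four]
  apply card_range_mul_card
  intro a b
  obtain ⟨h1, h2, h3, h4, h5, h6⟩ := hp
  simp only [conjPair, Prod.mk.injEq, pairFour]
  constructor
  · rintro ⟨e1, e2⟩
    apply mem_fourSub.mpr
    apply hC
    · calc a⁻¹ * b * p.1 = a⁻¹ * (b * p.1 * b⁻¹) * b := by group
        _ = a⁻¹ * (a * p.1 * a⁻¹) * b := by rw [e1]
        _ = _ := by group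
    · calc a⁻¹ * b * p.2 = a⁻¹ * (b * p.2 * b⁻¹) * b := by group
        _ = a⁻¹ * (a * p.2 * a⁻¹) * b := by rw [e2]
        _ = _ := by group
  · intro hm
    have c1 : a⁻¹ * b * p.1 = p.1 * (a⁻¹ * b) := by
      rcases mem_fourSub.mp hm with h | h | h | h <;> rw [h]
      · simp
      · exact h6.symm
      · rw [mul_assoc, ← h6]
    have c2 : a⁻¹ * b * p.2 = p.2 * (a⁻¹ * b) := by
      rcases mem_fourSub.mp hm with h | h | h | h <;> rw [h]
      · simp
      · exact h6
      · rw [← mul_assoc, ← h6]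
    constructor
    · calc a * p.1 * a⁻¹ = a * (p.1 * (a⁻¹ * b)) * b⁻¹ := by group
        _ = a * (a⁻¹ * b * p.1) * b⁻¹ := by rw [c1]
        _ = _ := by group
    · calc a * p.2 * a⁻¹ = a * (p.2 * (a⁻¹ * b)) * b⁻¹ := by group
        _ = a * (a⁻¹ * b * p.2) * b⁻¹ := by rw [c2]
        _ = _ := by group

theorem pairFour_conjPair (p : G × G) (hp : IsInvPair p) (g : G) :
    (pairFour ⟨conjPair p g, isInvPair_conjPair hp g⟩).1 =
      (pairFour ⟨p, hp⟩).1.map (MulAut.conj g).toMonoidHom := by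
  have hK := (pairFour ⟨p, hp⟩).2
  have hK' := (pairFour ⟨conjPair p g, isInvPair_conjPair hp g⟩).2
  have hfin : Finite (pairFour ⟨conjPair p g, isInvPair_conjPair hp g⟩).1 :=
    Nat.finite_of_card_ne_zero (by rw [hK'.card_four]; norm_num)
  symm
  apply Subgroup.eq_of_le_of_card_ge
  · rintro _ ⟨v, hv, rfl⟩
    simp only [pairFour] at hv ⊢
    apply mem_fourSub.mpr
    rcases mem_fourSub.mp hv with rfl | rfl | rfl | rfl
    · left; simp
    · right; left; simp [conjPair]
    · right; right; left; simp [conjPair]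
    · right; right; right; simp [conjPair]
  · rw [hK'.card_four, Subgroup.card_map_of_injective (MulAut.conj g).injective, hK.card_four]

theorem exists_pair_of_kleinFour (W : Subgroup G) (hW : IsKleinFour W) :
    ∃ (p : G × G) (hp : IsInvPair p), (pairFour ⟨p, hp⟩).1 = W := by
  have h := card_fiber (⟨W, hW⟩ : {V : Subgroup G // IsKleinFour V})
  have : Nonempty {p : {p : G × G // IsInvPair p} // pairFour p = ⟨W, hW⟩} := by
    by_contra hne
    rw [not_nonempty_iff] at hne
    rw [Nat.card_of_isEmpty] at h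
    omega
  obtain ⟨⟨⟨p, hp⟩, h⟩⟩ := this
  exact ⟨p, hp, congrArg Subtype.val h⟩

/-- at most two classes of four-groups -/
theorem exists_two_pairs [Finite G]
    (h12 : 12 * Nat.card {V : Subgroup G // IsKleinFour V} = Nat.card G)
    (hC : ∀ p : G × G, IsInvPair p → ∀ g : G, g * p.1 = p.1 * g → g * p.2 = p.2 * g →
      g = 1 ∨ g = p.1 ∨ g = p.2 ∨ g = p.1 * p.2) :
    ∃ p₁ p₂ : G × G, IsInvPair p₁ ∧ IsInvPair p₂ ∧
      ∀ p, IsInvPair p → p ∈ Set.range (conjPair p₁) ∨ p ∈ Set.range (conjPair p₂) := by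
  have hP : 2 * {p : G × G | IsInvPair p}.ncard = Nat.card G := by
    rw [← Nat.card_coe_set_eq]
    have := card_invPair (G := G)
    simp only [Set.coe_ofPred]
    rw [this, ← h12]; ring
  have hGpos : 0 < Nat.card G := Nat.card_pos
  have hne : {p : G × G | IsInvPair p}.Nonempty := by
    rw [← Set.ncard_pos]
    omega
  obtain ⟨p₁, hp₁⟩ := hne
  have h1 := four_mul_ncard_orbit p₁ hp₁ (hC p₁ hp₁)
  obtain ⟨p₂, hp₂, hp₂'⟩ := Set.exists_mem_notMem_of_ncard_lt_ncard
    (s := Set.range (conjPair p₁)) (t := {p : G × G | IsInvPair p}) (by omega)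
  have h2 := four_mul_ncard_orbit p₂ hp₂ (hC p₂ hp₂)
  refine ⟨p₁, p₂, hp₁, hp₂, ?_⟩
  have hdisj : Disjoint (Set.range (conjPair p₁)) (Set.range (conjPair p₂)) := by
    rw [Set.disjoint_left]
    rintro _ ⟨a, rfl⟩ ⟨b, hb⟩
    apply hp₂'
    refine ⟨b⁻¹ * a, ?_⟩
    rw [← conjPair_conjPair, ← hb, conjPair_conjPair]
    simp [conjPair]
  have hsub : Set.range (conjPair p₁) ∪ Set.range (conjPair p₂) ⊆ {p : G × G | IsInvPair p} := by
    rintro _ (⟨a, rfl⟩ | ⟨a, rfl⟩)
    · exact isInvPair_conjPair hp₁ a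
    · exact isInvPair_conjPair hp₂ a
  have hcard := Set.ncard_union_eq hdisj (Set.toFinite _) (Set.toFinite _)
  have heq := Set.eq_of_subset_of_ncard_le hsub (by omega) (Set.toFinite _)
  intro p hp
  have : p ∈ Set.range (conjPair p₁) ∪ Set.range (conjPair p₂) := by rw [heq]; exact hp
  exact this

theorem card_conjugates_mul [Finite G] (V : Subgroup G) :
    (Set.range (fun g : G => V.map (MulAut.conj g).toMonoidHom)).ncard *
      Nat.card (Subgroup.normalizer (V : Set G)) = Nat.card G := by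
  apply card_range_mul_card
  intro a b
  rw [Subgroup.mem_normalizer_iff_map_conj_eq]
  constructor
  · intro h
    have := congrArg (fun K : Subgroup G => K.map (MulAut.conj a⁻¹).toMonoidHom) h
    simp only [Subgroup.map_map] at this
    have e1 : (MulAut.conj a⁻¹).toMonoidHom.comp (MulAut.conj a).toMonoidHom = MonoidHom.id G := by
      ext x; simp [mul_assoc]
    have e2 : (MulAut.conj a⁻¹).toMonoidHom.comp (MulAut.conj b).toMonoidHom
        = (MulAut.conj (a⁻¹ * b)).toMonoidHom := by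
      ext x; simp [mul_assoc]
    rw [e1, e2, Subgroup.map_id] at this
    exact this.symm
  · intro h
    have h' : V.map (MulAut.conj (a⁻¹ * b)).toMonoidHom = V := h
    have := congrArg (fun K : Subgroup G => K.map (MulAut.conj a).toMonoidHom) h'
    simp only [Subgroup.map_map] at this
    have e2 : (MulAut.conj a).toMonoidHom.comp (MulAut.conj (a⁻¹ * b)).toMonoidHom
        = (MulAut.conj b).toMonoidHom := by
      ext x; simp [mul_assoc]
    rw [e2] at this
    exact this.symm

/-- exactly two classes of four-groups -/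
theorem two_classes_kleinFour [Finite G]
    (h12 : 12 * Nat.card {V : Subgroup G // IsKleinFour V} = Nat.card G)
    (hC : ∀ p : G × G, IsInvPair p → ∀ g : G, g * p.1 = p.1 * g → g * p.2 = p.2 * g →
      g = 1 ∨ g = p.1 ∨ g = p.2 ∨ g = p.1 * p.2)
    (h8 : 8 ∣ Nat.card G) :
    ∃ V₁ V₂ : Subgroup G, IsKleinFour V₁ ∧ IsKleinFour V₂ ∧
      (¬ ∃ g : G, V₂ = V₁.map (MulAut.conj g).toMonoidHom) ∧
      ∀ W : Subgroup G, IsKleinFour W → (∃ g : G, W = V₁.map (MulAut.conj g).toMonoidHom) ∨
        (∃ g : G, W = V₂.map (MulAut.conj g).toMonoidHom) := by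
  obtain ⟨p₁, p₂, hp₁, hp₂, hall⟩ := exists_two_pairs h12 hC
  have hW : ∀ W : Subgroup G, IsKleinFour W →
      (∃ g : G, W = (pairFour ⟨p₁, hp₁⟩).1.map (MulAut.conj g).toMonoidHom) ∨
        (∃ g : G, W = (pairFour ⟨p₂, hp₂⟩).1.map (MulAut.conj g).toMonoidHom) := by
    intro W hW
    obtain ⟨p, hp, rfl⟩ := exists_pair_of_kleinFour W hW
    rcases hall p hp with ⟨g, rfl⟩ | ⟨g, rfl⟩
    · exact Or.inl ⟨g, pairFour_conjPair p₁ hp₁ g⟩
    · exact Or.inr ⟨g, pairFour_conjPair p₂ hp₂ g⟩
  refine ⟨(pairFour ⟨p₁, hp₁⟩).1, (pairFour ⟨p₂, hp₂⟩).1, (pairFour ⟨p₁, hp₁⟩).2,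
    (pairFour ⟨p₂, hp₂⟩).2, ?_, hW⟩
  rintro ⟨g₀, hg₀⟩
  set V₁ := (pairFour ⟨p₁, hp₁⟩).1 with hV₁
  have hK₁ : IsKleinFour V₁ := (pairFour ⟨p₁, hp₁⟩).2
  -- all four-groups are conjugate to `V₁`
  have hset : {V : Subgroup G | IsKleinFour V} =
      Set.range (fun g : G => V₁.map (MulAut.conj g).toMonoidHom) := by
    ext W
    constructor
    · intro hWk
      rcases hW W hWk with ⟨g, rfl⟩ | ⟨g, rfl⟩
      · exact ⟨g, rfl⟩
      · refine ⟨g * g₀, ?_⟩
        rw [hg₀, Subgroup.map_map]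
        ext x; simp [mul_assoc]
    · rintro ⟨g, rfl⟩
      obtain ⟨p, hp, hpV⟩ := exists_pair_of_kleinFour V₁ hK₁
      show IsKleinFour (V₁.map (MulAut.conj g).toMonoidHom)
      rw [← hpV, ← pairFour_conjPair p hp g]
      exact (pairFour _).2
  have h1 := card_conjugates_mul V₁
  rw [← hset, ← Nat.card_coe_set_eq] at h1
  simp only [Set.coe_ofPred] at h1
  have hGpos : 0 < Nat.card G := Nat.card_pos
  have hN : Nat.card (Subgroup.normalizer (V₁ : Set G)) = 12 := by
    have hpos : 0 < Nat.card {V : Subgroup G // IsKleinFour V} := by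
      rcases Nat.eq_zero_or_pos (Nat.card {V : Subgroup G // IsKleinFour V}) with h | h
      · rw [h] at h12; omega
      · exact h
    apply Nat.eq_of_mul_eq_mul_left hpos
    rw [h1, ← h12, mul_comm]
  have : Fact (Nat.Prime 2) := ⟨Nat.prime_two⟩
  have h2 := Sylow.prime_dvd_card_quotient_normalizer (p := 2) (n := 2) (G := G)
    (by norm_num; exact h8) (H := V₁) (by rw [hK₁.card_four]; norm_num)
  have h3 := Subgroup.card_eq_card_quotient_mul_card_subgroup
    (V₁.comap (Subgroup.normalizer (V₁ : Set G)).subtype)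
  have h4 : Nat.card (V₁.comap (Subgroup.normalizer (V₁ : Set G)).subtype) = 4 := by
    rw [← hK₁.card_four]
    exact Nat.card_congr (Subgroup.subgroupOfEquivOfLe Subgroup.le_normalizer).toEquiv
  rw [hN, h4] at h3
  omega

/-- four-groups that are Sylow subgroups are conjugate -/
theorem kleinFour_conj_of_sylow [Finite G] (m : ℕ) (hm : Nat.card G = 4 * m) (hodd : m % 2 = 1)
    (V W : Subgroup G) (hV : IsKleinFour V) (hW : IsKleinFour W) :
    ∃ g : G, W = V.map (MulAut.conj g).toMonoidHom := by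
  have : Fact (Nat.Prime 2) := ⟨Nat.prime_two⟩
  have hf : (Nat.card G).factorization 2 = 2 := by
    rw [hm, show 4 * m = 2 ^ 2 * m by ring]
    rw [Nat.factorization_mul (by norm_num) (by omega)]
    simp only [Finsupp.coe_add, Pi.add_apply]
    rw [Nat.Prime.factorization_pow Nat.prime_two]
    have : m.factorization 2 = 0 := Nat.factorization_eq_zero_of_not_dvd (by omega)
    simp [this]
  let P : Sylow 2 G := Sylow.ofCard V (by rw [hV.card_four, hf]; norm_num)
  let Q : Sylow 2 G := Sylow.ofCard W (by rw [hW.card_four, hf]; norm_num)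
  obtain ⟨g, hg⟩ := MulAction.exists_smul_eq G P Q
  refine ⟨g, ?_⟩
  have := congrArg (fun S : Sylow 2 G => (S : Subgroup G)) hg
  simp only [Sylow.coe_subgroup_smul] at this
  exact this.symm

end Cfsg.Agent.Lib.Helper47
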