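import Cfsg.Agent.Lib.Helper47.BalPSLMain

set_option autoImplicit false
set_option linter.unusedSectionVars false
set_option linter.unusedVariables false

/-!
S2686: generic reductions for the graph and graph-field types.
-/

namespace Cfsg.Agent.Lib.Helper47.BalPSL

open Matrix MatrixGroups Cfsg.Agent.Lib.Helper18.AutPSL Cfsg.Agent.Lib.Helper99.BalPSU
  Cfsg.Agent.Lib.Helper50.GI Cfsg.Agent.Lib.Helper62.BalPSU

variable {F : Type*} [Field F] [Fintype F] {n : ℕ}

theorem typeA_mul_of_not (r : ℕ) [Fact r.Prime] [CharP F r] (h3 : 3 ≤ n)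
    {α β : MulAut (ProjectiveSpecialLinearGroup (Fin n) F)} (hα : ¬ TypeA α) (hβ : ¬ TypeA β) :
    TypeA (α * β) := by
  have h3' : 3 ≤ Fintype.card (Fin n) := by rw [Fintype.card_fin]; exact h3
  have hT := tvInv (ι := Fin n) (F := F) r h3'
  have hA : TypeA (α * gr) := (typeA_or h3' hT α).resolve_left hα
  have hA' : TypeA (β * gr) := (typeA_or h3' hT β).resolve_left hβ
  have hB : TypeA (gr * β) := by
    rcases typeA_or h3' hT (gr * (β * gr)) with h | h
    · exfalso
      apply not_typeA_gr (F := F) h3'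
      have := h.mul (hA'.inv h3' hT)
      rwa [mul_assoc, mul_inv_cancel, mul_one] at this
    · rwa [mul_assoc, mul_assoc, gr_mul_gr, mul_one] at h
  have := hA.mul hB
  rwa [mul_assoc, ← mul_assoc gr, gr_mul_gr, one_mul] at this

/-- for `HII` it is enough to deal with the automorphisms `cG h * fl τ` -/
theorem HII_of_typeA (r : ℕ) [Fact r.Prime] [CharP F r] (h3 : 3 ≤ n)
    (β : MulAut (ProjectiveSpecialLinearGroup (Fin n) F)) (hord : orderOf β = 2)
    (hB : ¬ TypeA β)
    (hA : ∀ (h : GL (Fin n) F) (τ : F ≃+* F),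
      (∀ k ∈ fixS β, (cG h * fl τ : MulAut (ProjectiveSpecialLinearGroup (Fin n) F)) k = k) →
        (cG h * fl τ : MulAut (ProjectiveSpecialLinearGroup (Fin n) F)) = 1) : HII 2 β := by
  intro α hα hcop
  have h3' : 3 ≤ Fintype.card (Fin n) := by rw [Fintype.card_fin]; exact h3
  have hT := tvInv (ι := Fin n) (F := F) r h3'
  by_cases hαA : TypeA α
  · obtain ⟨h, τ, rfl⟩ := hαA.form h3' hT
    exact hA h τ hα
  · exfalso
    obtain ⟨h, τ, e⟩ := (typeA_mul_of_not r h3 hαA hB).form h3' hT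
    have h1 : α * β = 1 := by
      rw [e]
      apply hA h τ
      intro k hk
      have e' : (cG h * fl τ : MulAut (ProjectiveSpecialLinearGroup (Fin n) F)) = α * β := e.symm
      rw [e', MulAut.mul_apply, mem_fixS.1 hk, hα k hk]
    have h2 : α = β⁻¹ := eq_inv_of_mul_eq_one_left h1
    rw [h2, orderOf_inv, hord] at hcop
    exact absurd hcop (by decide)

/-- reduction of the automorphisms of order `2` which are not of type A to three standard forms -/
theorem graph_reduce (r : ℕ) [Fact r.Prime] [CharP F r] (h3 : 3 ≤ n)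
    (P : MulAut (ProjectiveSpecialLinearGroup (Fin n) F) → Prop)
    (hconj : ∀ (b : GL (Fin n) F) β, P β → P (cG b * β * (cG b)⁻¹))
    (hS : ∀ g : GL (Fin n) F, g.1ᵀ = g.1 → P (gam g))
    (hAlt : ∀ g : GL (Fin n) F, g.1ᵀ = -g.1 → P (gam g))
    (hU : ∀ σ : F ≃+* F, σ ≠ 1 → σ * σ = 1 → P (fl σ * gr))
    (β : MulAut (ProjectiveSpecialLinearGroup (Fin n) F)) (hord : orderOf β = 2)
    (hB : ¬ TypeA β) : P β := by
  have hn : 2 ≤ n := by omega
  rcases aut_form' r hn β with ⟨g, σ, rfl⟩ | ⟨-, g, σ, rfl⟩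
  · exact absurd (typeA_cG_fl g σ) hB
  have hsq : (cG g * (fl σ * gr) : MulAut (ProjectiveSpecialLinearGroup (Fin n) F)) ^ 2 = 1 := by
    rw [← mul_assoc, ← hord]
    exact pow_orderOf_eq_one _
  have hσ2 : σ * σ = 1 := by
    have h1 : (cG (g * gm σ (gT g)) * fl (σ * σ) :
        MulAut (ProjectiveSpecialLinearGroup (Fin n) F)) = 1 := by
      rw [← hsq, pow_two, map_mul, ← gf_mul_gf]
      calc cG g * cG (gm σ (gT g)) * ((fl σ * gr) * (fl σ * gr))
          = cG g * (cG (gm σ (gT g)) * (fl σ * gr)) * (fl σ * gr) := by group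
        _ = _ := by rw [← gf_mul_cG]; group
    refine (rigid_fin hn (g * gm σ (gT g))⁻¹ (σ * σ) ?_).1
    rw [map_inv]
    exact inv_eq_of_mul_eq_one_right h1
  by_cases hσ1 : σ = 1
  · subst hσ1
    rw [map_one, mul_one] at hord ⊢
    rcases (orderOf_gam_iff h3 g).1 hord with h | h
    · exact hS g h
    · exact hAlt g h
  · obtain ⟨b, hb⟩ := gfield_core hn g σ hσ1 hσ2 hsq
    rw [mul_assoc, hb]
    exact hconj b _ (hU σ hσ1 hσ2)

end Cfsg.Agent.Lib.Helper47.BalPSL
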