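import Cfsg.Agent.Lib.Helper47.AutPSUKer

set_option autoImplicit false
set_option linter.unusedSectionVars false
set_option linter.unusedVariables false

/-!
A semilinear map fixing all the isotropic points of the standard Hermitian form is a scalar
(odd characteristic; the map is not assumed to preserve the form).
-/

namespace Cfsg.Agent.Lib.Helper47.BalPSL

open Matrix MatrixGroups Cfsg.Agent.Lib.Helper17 Cfsg.Agent.Lib.Helper99.AutPSU
  Cfsg.Agent.Lib.Helper47.AutPSU

variable {F : Type*} [Field F] [Fintype F] {n q : ℕ}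

theorem herm_pts_rigid (hF : Fintype.card F = q ^ 2) (hn : 3 ≤ n) (h2 : (2 : F) ≠ 0)
    (Ψ : (Fin n → F) → (Fin n → F)) (τ : F ≃+* F)
    (hadd : ∀ u v, Ψ (u + v) = Ψ u + Ψ v) (hsmul : ∀ (c : F) v, Ψ (c • v) = τ c • Ψ v)
    (hne : ∀ v, v ≠ 0 → Ψ v ≠ 0)
    (hfix : ∀ b, Iso q b → ∃ c : F, Ψ b = c • b) :
    τ = 1 ∧ ∃ μ : F, ∀ v, Ψ v = μ • v := by
  obtain ⟨a, ha0, haa⟩ := exists_isotropic_ne_zero hF (n := n) (by omega)
  obtain ⟨b, hp⟩ := exists_HP hF (⟨ha0, haa⟩ : Iso q a)
  obtain ⟨α, hα⟩ := hfix a hp.isoA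
  obtain ⟨β, hβ⟩ := hfix b (hp.isoB hF)
  have hβ0 : β ≠ 0 := by
    rintro rfl
    rw [zero_smul] at hβ
    exact hne b (hp.b_ne hF) hβ
  have hneg : ∀ w, Ψ (-w) = - Ψ w := by
    intro w
    have := hsmul (-1) w
    rwa [neg_one_smul, map_neg, map_one, neg_one_smul] at this
  have hzero : Ψ 0 = 0 := by
    have := hsmul 0 0
    rwa [zero_smul, map_zero, zero_smul] at this
  have iso : ∀ (w : Fin n → F) (k : F), Cfsg.hermForm n F q w a = 0 →
      Cfsg.hermForm n F q w b = 0 → k + k ^ q + Cfsg.hermForm n F q w w = 0 →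
      Iso q (b + w + k • a) := by
    intro w k hwa hwb hk
    have haw := herm_zero_comm hF hwa
    have hbw := herm_zero_comm hF hwb
    constructor
    · intro h0
      have := congrArg (fun u => Cfsg.hermForm n F q u a) h0
      simp only [hermForm_add_left, hermForm_smul_left, hp.a0, hp.ba hF, hwa,
        herm_zero_left] at this
      simp at this
    · simp only [hermForm_add_left, hermForm_add_right hF, hermForm_smul_left,
        hermForm_smul_right, hp.a0, hp.b0, hp.ab, hp.ba hF, hwa, hwb, haw, hbw]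
      linear_combination hk
  have key : ∀ (w : Fin n → F) (k : F), Cfsg.hermForm n F q w a = 0 →
      Cfsg.hermForm n F q w b = 0 → k + k ^ q + Cfsg.hermForm n F q w w = 0 →
      τ k * α = β * k ∧ Ψ w = β • w := by
    intro w k hwa hwb hk
    obtain ⟨c1, hc1⟩ := hfix _ (iso w k hwa hwb hk)
    have hww : Cfsg.hermForm n F q (-w) (-w) = Cfsg.hermForm n F q w w := by
      rw [herm_neg_left, ← hermForm_conj hF, herm_neg_left, pow_q_eq_frob hF, map_neg,
        ← pow_q_eq_frob hF, hermForm_conj hF, neg_neg]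
    obtain ⟨c2, hc2⟩ := hfix _ (iso (-w) k (by rw [herm_neg_left, hwa, neg_zero])
      (by rw [herm_neg_left, hwb, neg_zero]) (by rw [hww]; exact hk))
    rw [hadd, hadd, hsmul, hα, hβ] at hc1 hc2
    rw [hneg] at hc2
    have hsum : (2 * β) • b + (2 * (τ k * α)) • a =
        (c1 + c2) • b + (c1 - c2) • w + ((c1 + c2) * k) • a := by
      linear_combination (norm := module) hc1 + hc2
    have e1 := congrArg (fun u => Cfsg.hermForm n F q u a) hsum
    have e2 := congrArg (fun u => Cfsg.hermForm n F q u b) hsum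
    simp only [hermForm_add_left, hermForm_smul_left, hp.a0, hp.b0, hp.ab, hp.ba hF, hwa,
      hwb] at e1 e2
    have h12 : c1 + c2 = 2 * β := by linear_combination -e1
    have e3 : τ k * α = β * k := by
      apply mul_left_cancel₀ h2
      linear_combination e2 + k * h12
    refine ⟨e3, ?_⟩
    by_cases hw : w = 0
    · subst hw
      rw [hzero, smul_zero]
    · have hd : (c1 - c2) • w = 0 := by
        have : (c1 - c2) • w = (2 * β - (c1 + c2)) • b + (2 * (τ k * α) - (c1 + c2) * k) • a := by
          linear_combination (norm := module) -hsum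
        rw [this, h12, e3]
        module
      have h3 : c1 = c2 := sub_eq_zero.1 ((smul_eq_zero.1 hd).resolve_right hw)
      have h4 : c1 = β := by
        apply mul_left_cancel₀ h2
        linear_combination h12 + h3
      have h5 : Ψ w = c1 • (b + w + k • a) - β • b - τ k • α • a := by rw [← hc1]; abel
      rw [h5, smul_smul, e3, h4]
      module
  have hk : ∀ k : F, τ k * α = β * k := by
    intro k
    obtain ⟨w, h1, h2, h3⟩ := exists_w hF hn hp k
    exact (key w k h1 h2 h3).1
  have hαβ : α = β := by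
    have := hk 1
    rwa [map_one, one_mul, mul_one] at this
  have hτ : τ = 1 := by
    ext k
    have := hk k
    rw [hαβ, mul_comm] at this
    exact mul_left_cancel₀ hβ0 this
  refine ⟨hτ, β, ?_⟩
  intro v
  obtain ⟨k, hk'⟩ := exists_trace_eq hF (-(Cfsg.hermForm n F q (pw q a b v) (pw q a b v))) (by
    rw [pow_q_eq_frob hF, map_neg, ← pow_q_eq_frob hF, hermForm_conj hF])
  have h6 := (key (pw q a b v) k (pw_a hF hp v) (pw_b hF hp v) (by rw [hk']; ring)).2
  conv_lhs => rw [decomp (q := q) a b v]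
  rw [hadd, hadd, hsmul, hsmul, hα, hβ, h6, hαβ, hτ]
  conv_rhs => rw [decomp (q := q) a b v]
  have h1 : ∀ x : F, (1 : F ≃+* F) x = x := fun _ => rfl
  simp only [h1, smul_add, smul_smul]
  congr 1
  congr 1 <;> rw [mul_comm]

end Cfsg.Agent.Lib.Helper47.BalPSL
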