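import Cfsg.Agent.Lib.Helper47.BalPSLG
import Cfsg.Agent.Lib.Helper47.BalPSLUR
import Cfsg.Agent.Lib.Helper47.BalPSUODD
import Cfsg.Agent.Lib.Helper47.BalPSUORD
import Cfsg.Agent.S0283

set_option autoImplicit false
set_option linter.unusedSectionVars false
set_option linter.unusedVariables false

/-!
S2686: the graph-field type `fl σ * gr`, `σ` an involution of `F`.
-/

namespace Cfsg.Agent.Lib.Helper47.BalPSL

open Matrix MatrixGroups Cfsg.Agent.Lib.Helper18.AutPSL Cfsg.Agent.Lib.Helper99.BalPSU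
  Cfsg.Agent.Lib.Helper50.GI Cfsg.Agent.Lib.Helper62.BalPSU
open Cfsg.Agent.Lib.Helper99

variable {F : Type*} [Field F] [Fintype F] {n q : ℕ}

/-- an automorphism of type A fixing the unitary transvections fixes the isotropic points -/
theorem U_pt (hF : Fintype.card F = q ^ 2) (h : GL (Fin n) F) (τ : F ≃+* F)
    (hfix : ∀ x : ↥(Cfsg.SU n F q),
      (cG h * fl τ : MulAut (ProjectiveSpecialLinearGroup (Fin n) F)) (pm x.1) = pm x.1)
    {b : Fin n → F} (hb : AutPSU.Iso q b) : ∃ c : F, Gm h τ b = c • b := by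
  obtain ⟨a, hp⟩ := AutPSU.exists_HP hF hb
  obtain ⟨x, hx, hx1⟩ := AutPSU.exists_X_ne_one hF hb
  obtain ⟨l, -, hl⟩ := (AutPSU.mem_X_iff hF hp x).1 hx
  have hl0 := AutPSU.l_ne_zero hx1 hl
  have hpm : pm (conjS h (fldS τ x.1)) = pm x.1 := hfix x
  obtain ⟨ζ, hζ'⟩ := exists_eps_of_pm_eq hpm
  have hζ : ∀ v, AutPSU.mt x *ᵥ v = ζ • ((conjS h (fldS τ x.1)).1 *ᵥ v) := by
    intro v
    rw [← smul_mulVec, ← hζ']
  by_cases hζ1 : ζ = 1
  · have h1 := hζ (Gm h τ a)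
    rw [Gm_conj] at h1
    change _ = ζ • Gm h τ (AutPSU.mt x *ᵥ a) at h1
    rw [hl, hl, hp.ba hF, mul_one, Gm_add, Gm_smul, hζ1, one_smul] at h1
    have h2 : τ l • Gm h τ b = (l * Cfsg.hermForm n F q (Gm h τ a) b) • b :=
      (add_left_cancel h1).symm
    have hσl : τ l ≠ 0 := by simpa using hl0
    refine ⟨(τ l)⁻¹ * (l * Cfsg.hermForm n F q (Gm h τ a) b), ?_⟩
    rw [mul_smul, ← h2, smul_smul, inv_mul_cancel₀ hσl, one_smul]
  · have h1 := hζ (Gm h τ b)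
    rw [Gm_conj] at h1
    change _ = ζ • Gm h τ (AutPSU.mt x *ᵥ b) at h1
    rw [hl, hl b, hb.2, mul_zero, zero_smul, add_zero] at h1
    have h2 : (ζ - 1) • Gm h τ b = (l * Cfsg.hermForm n F q (Gm h τ b) b) • b := by
      rw [sub_smul, one_smul, ← h1]; abel
    refine ⟨(ζ - 1)⁻¹ * (l * Cfsg.hermForm n F q (Gm h τ b) b), ?_⟩
    rw [mul_smul, ← h2, smul_smul, inv_mul_cancel₀ (sub_ne_zero.2 hζ1), one_smul]

theorem U_rigid (hF : Fintype.card F = q ^ 2) (hn : 3 ≤ n) (h2 : (2 : F) ≠ 0) (h : GL (Fin n) F)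
    (τ : F ≃+* F)
    (hfix : ∀ x : ↥(Cfsg.SU n F q),
      (cG h * fl τ : MulAut (ProjectiveSpecialLinearGroup (Fin n) F)) (pm x.1) = pm x.1) :
    τ = 1 ∧ ∃ μ : F, h.1 = μ • 1 := by
  obtain ⟨h1, μ, hμ⟩ := herm_pts_rigid hF hn h2 (Gm h τ) τ (Gm_add h τ) (Gm_smul h τ)
    (fun v hv => Gm_ne_zero h τ hv) (fun b hb => U_pt hF h τ hfix hb)
  refine ⟨h1, μ, ?_⟩
  subst h1
  rw [Matrix.ext_iff_mulVec]
  intro v
  rw [smul_mulVec, one_mulVec, ← hμ v]
  rfl

/-- `PSU_n(q) → PSL_n(q²)` -/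
noncomputable def iu (hF : Fintype.card F = q ^ 2) :
    Cfsg.PSU n F q →* ProjectiveSpecialLinearGroup (Fin n) F :=
  QuotientGroup.lift _ ((QuotientGroup.mk' _).comp (Cfsg.SU n F q).subtype) (by
    intro z hz
    obtain ⟨ζ, hζ⟩ := AutPSU.center_scalar hF z hz
    show pm z.1 = 1
    rw [← pm_one]
    symm
    apply pm_eq_of_smul (ε := ζ)
    rw [Matrix.ext_iff_mulVec]
    intro v
    rw [smul_mulVec]
    show AutPSU.mt z *ᵥ v = ζ • ((1 : Matrix (Fin n) (Fin n) F) *ᵥ v)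
    rw [one_mulVec, hζ])

theorem iu_pm (hF : Fintype.card F = q ^ 2) (x : ↥(Cfsg.SU n F q)) :
    iu hF (AutPSU.pm x) = pm x.1 := rfl

theorem unitary_of_SU (hF : Fintype.card F = q ^ 2) (σ : F ≃+* F) (hσq : ∀ x, σ x = x ^ q)
    (x : ↥(Cfsg.SU n F q)) : x.1.1 * st σ x.1.1 = 1 :=
  (mem_GU_iff_st hF σ hσq (AutPSU.toGU x).1).1 (AutPSU.toGU x).2

theorem gf_fix_SU (hF : Fintype.card F = q ^ 2) (σ : F ≃+* F) (hσq : ∀ x, σ x = x ^ q)
    (hs : ∀ x, σ (σ x) = x) (x : ↥(Cfsg.SU n F q)) :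
    (fl σ * gr : MulAut (ProjectiveSpecialLinearGroup (Fin n) F)) (pm x.1) = pm x.1 := by
  show pm (fldS σ (invT x.1)) = pm x.1
  have h1 : invT x.1 = fldS σ x.1 := by
    apply invT_eq_of_mul
    exact mul_eq_one_comm.1 (unitary_of_SU hF σ hσq x)
  rw [h1]
  congr 1
  apply Subtype.ext
  ext i j
  exact hs _

theorem gf_norm (hF : Fintype.card F = q ^ 2) (hn : 2 ≤ n) (σ : F ≃+* F)
    (hσq : ∀ x, σ x = x ^ q) (hσ1 : σ ≠ 1) (hσ2 : σ * σ = 1)
    (m : ProjectiveSpecialLinearGroup (Fin n) F)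
    (hm : (fl σ * gr : MulAut (ProjectiveSpecialLinearGroup (Fin n) F)) m = m)
    (y : Cfsg.PSU n F q) : ∃ y', m * iu hF y * m⁻¹ = iu hF y' := by
  obtain ⟨s, rfl⟩ := pm_surjective m
  obtain ⟨x, rfl⟩ := AutPSU.pm_surjective y
  have hc := conj_comm_of_fix hm
  rw [← cG_toGL] at hc
  obtain ⟨μ, hμ0, hμ⟩ := exists_unitary_of_comm hn _ σ hσ1 hσ2 hc
  have hval : (sc μ hμ0 * SpecialLinearGroup.toGL s : GL (Fin n) F).1 =
      μ • (SpecialLinearGroup.toGL s : GL (Fin n) F).1 := by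
    rw [Units.val_mul, sc_val, smul_mul_assoc, Matrix.one_mul]
  have hg : (sc μ hμ0 * SpecialLinearGroup.toGL s : GL (Fin n) F) ∈ Cfsg.GU n F q := by
    rw [mem_GU_iff_st hF σ hσq, hval]
    exact hμ
  refine ⟨AutPSU.pm (AutPSU.conjS ⟨_, hg⟩ x), ?_⟩
  rw [iu_pm, iu_pm, ← MulAut.conj_apply, ← cG_toGL]
  have e : (cG (SpecialLinearGroup.toGL s) : MulAut (ProjectiveSpecialLinearGroup (Fin n) F)) =
      cG (sc μ hμ0 * SpecialLinearGroup.toGL s) := by
    rw [map_mul, cG_sc, one_mul]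
  rw [e, cG_pm]
  rfl

theorem two_dvd_card_PSU (hF : Fintype.card F = q ^ 2) (hn : 3 ≤ n) (h2 : (2 : F) ≠ 0) :
    2 ∣ Nat.card (Cfsg.PSU n F q) := by
  have hq : 1 ≤ q := by
    rcases Nat.eq_zero_or_pos q with rfl | h0
    · have := Fintype.card_pos (α := F)
      rw [hF] at this
      simp at this
    · exact h0
  have hodd : 2 ∣ q + 1 := by
    by_contra hcon
    have hev : 2 ∣ q := by omega
    obtain ⟨k, rfl⟩ := hev
    have h0 : ((Fintype.card F : ℕ) : F) = 0 := Nat.cast_card_eq_zero F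
    obtain ⟨r, hr⟩ := CharP.exists F
    have hrp : r.Prime := CharP.char_is_prime F r
    obtain ⟨f, -, hf⟩ := FiniteField.card F r
    have h1 : 2 ∣ r ^ (f : ℕ) := by
      rw [← hf, hF]
      exact Dvd.dvd.pow (Dvd.intro _ rfl) (by norm_num)
    have h3 : 2 ∣ r := Nat.Prime.dvd_of_dvd_pow Nat.prime_two h1
    have h4 : r = 2 := ((Nat.prime_dvd_prime_iff_eq Nat.prime_two hrp).1 h3).symm
    subst h4
    apply h2
    have := CharP.cast_eq_zero F 2
    exact_mod_cast this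
  apply Cfsg.Agent.Lib.Helper47.BalPSU.dvd_card_PSU hF hn Nat.prime_two
  have e2 := Cfsg.Agent.Lib.Helper50.Herm.card_SU hF n (by omega)
  have e3 := Cfsg.Agent.Lib.Helper50.Herm.card_GU hF n
  have h3 : (q + 1) ^ 3 ∣ Nat.card ↥(Cfsg.GU n F q) := by
    rw [e3]
    apply Dvd.dvd.mul_left
    exact (Cfsg.Agent.Lib.Helper47.BalPSU.prod_three q hq).trans
      (Finset.prod_dvd_prod_of_subset _ _ _ (Finset.range_subset_range.2 hn))
  rw [← e2, pow_succ, mul_comm] at h3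
  have h5 := Nat.dvd_of_mul_dvd_mul_left (by omega) h3
  exact hodd.trans ((dvd_pow_self _ (by norm_num)).trans h5)

theorem gfield_case (r : ℕ) [Fact r.Prime] [CharP F r] (h3 : 3 ≤ n) (h2 : (2 : F) ≠ 0)
    (σ : F ≃+* F) (hσ1 : σ ≠ 1) (hσ2 : σ * σ = 1) :
    HI 2 (fl σ * gr : MulAut (ProjectiveSpecialLinearGroup (Fin n) F)) ∧
      HII 2 (fl σ * gr : MulAut (ProjectiveSpecialLinearGroup (Fin n) F)) := by
  have hn : 2 ≤ n := by omega
  have hs : ∀ x, σ (σ x) = x := fun x => congrArg (fun τ : F ≃+* F => τ x) hσ2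
  obtain ⟨q, hq, hσq⟩ := Cfsg.Agent.Lib.Helper17.exists_card_eq_sq_of_involution (σ : F →+* F)
    (by
      intro h0
      apply hσ1
      ext x
      exact congrArg (fun τ : F →+* F => τ x) h0) hs
  rw [Nat.card_eq_fintype_card] at hq
  have hσq' : ∀ x, σ x = x ^ q := hσq
  have hq2 : q ≠ 2 := by
    rintro rfl
    apply h2
    have : ((Fintype.card F : ℕ) : F) = 0 := Nat.cast_card_eq_zero F
    rw [hq] at this
    have h4 : (2 : F) * 2 = 0 := by
      have e : (((2 : ℕ) ^ 2 : ℕ) : F) = 2 * 2 := by norm_num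
      rw [← e]
      exact this
    exact (mul_self_eq_zero.1 h4)
  have hsimple : IsSimpleGroup (Cfsg.PSU n F q) :=
    Cfsg.Agent.S0283.result hq n h3 (fun h => hq2 h.2)
  have hrig : ∀ m : ProjectiveSpecialLinearGroup (Fin n) F,
      (∀ y, m * iu hq y * m⁻¹ = iu hq y) → m = 1 := by
    intro m hm
    obtain ⟨s, rfl⟩ := pm_surjective m
    have h1 : ∀ x : ↥(Cfsg.SU n F q),
        (cG (SpecialLinearGroup.toGL s) * fl 1 :
          MulAut (ProjectiveSpecialLinearGroup (Fin n) F)) (pm x.1) = pm x.1 := by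
      intro x
      rw [map_one, mul_one, cG_toGL, MulAut.conj_apply]
      exact hm (AutPSU.pm x)
    obtain ⟨-, μ, hμ⟩ := U_rigid hq h3 h2 _ _ h1
    rw [← pm_one]
    symm
    exact pm_eq_of_smul (ε := μ) hμ
  have hord : orderOf (fl σ * gr : MulAut (ProjectiveSpecialLinearGroup (Fin n) F)) = 2 := by
    apply orderOf_eq_prime
    · rw [pow_two, gf_mul_gf, hσ2, map_one]
    · intro h1
      have := not_typeA_of_form r h3 (1 : GL (Fin n) F) σ
      rw [map_one, one_mul, h1] at this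
      exact this typeA_one
  have hB : ¬ TypeA (fl σ * gr : MulAut (ProjectiveSpecialLinearGroup (Fin n) F)) := by
    have := not_typeA_of_form r h3 (1 : GL (Fin n) F) σ
    rwa [map_one, one_mul] at this
  constructor
  · apply Cfsg.Agent.Lib.Helper47.BalPSU.HI_of_simple (iu hq) _ 2
    · intro y
      obtain ⟨x, rfl⟩ := AutPSU.pm_surjective y
      exact gf_fix_SU hq σ hσq' hs x
    · intro m hm y
      exact gf_norm hq hn σ hσq' hσ1 hσ2 m hm y
    · by_contra hcon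
      push Not at hcon
      have hall : ∀ m : ProjectiveSpecialLinearGroup (Fin n) F, m = 1 := by
        intro m
        apply hrig
        intro y
        rw [hcon y, mul_one, mul_inv_cancel]
      exact fld_fix_ne_bot hn (RingHom.id F) (1 : F ≃+* F) (fun x => rfl)
        (by rw [eq_bot_iff]; intro k _; exact hall k)
    · decide
    · exact two_dvd_card_PSU hq h3 h2
    · exact hrig
  · apply HII_of_typeA r h3 _ hord hB
    intro h τ hfix
    obtain ⟨h1, μ, hμ⟩ := U_rigid hq h3 h2 h τ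
      (fun x => hfix _ (gf_fix_SU hq σ hσq' hs x))
    rw [h1, map_one, mul_one, cG_eq_one_of_scalar h hμ]

end Cfsg.Agent.Lib.Helper47.BalPSL
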